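import Cfsg.Agent.Lib.Helper39.GL2Char.SConj

/-!
# Conjugacy classes of `SL₂(q)`, `q` odd
-/

set_option autoImplicit false
set_option linter.unusedSectionVars false

namespace Cfsg.Agent.Lib.Helper39

open Cfsg
open scoped MatrixGroups

variable {F : Type*} [Field F] [Fintype F] [DecidableEq F]

theorem det_toGL (g : SL2 F) :
    Matrix.GeneralLinearGroup.det (Matrix.SpecialLinearGroup.toGL g) = 1 := by
  apply Units.ext
  exact g.2

theorem trace_bS (s : Fˣ) (x : F) :
    (bS s x : Matrix (Fin 2) (Fin 2) F).trace = s + ((s⁻¹ : Fˣ) : F) := by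
  rw [bS_coe, Matrix.trace_fin_two_of]

theorem trace_cSL (t : F) : (cSL t : Matrix (Fin 2) (Fin 2) F).trace = t := compMat_trace t 1

theorem not_isScalar2_bS (s : Fˣ) {x : F} (hx : x ≠ 0) :
    ¬ IsScalar2 (bS s x : Matrix (Fin 2) (Fin 2) F) := by
  intro h
  apply hx
  simpa [bS_coe] using h.1

/-- non-scalar elements of trace `2σ` are conjugate to `[[σ,e],[0,σ]]`. -/
theorem exists_isConj_bS (g : SL2 F) (hg : ¬ IsScalar2 (g : Matrix (Fin 2) (Fin 2) F)) (σ : Fˣ)
    (ht : (g : Matrix (Fin 2) (Fin 2) F).trace = σ + ((σ⁻¹ : Fˣ) : F)) :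
    ∃ e : Fˣ, IsConj (bS σ e) g := by
  have h1 := isConj_compGL (Matrix.SpecialLinearGroup.toGL g) hg
  have h2 := isConj_compGL (Matrix.SpecialLinearGroup.toGL (bS σ 1))
    (not_isScalar2_bS σ one_ne_zero)
  rw [det_toGL] at h1 h2
  have e1 : ((Matrix.SpecialLinearGroup.toGL g : GL (Fin 2) F) : Matrix (Fin 2) (Fin 2) F).trace
      = σ + ((σ⁻¹ : Fˣ) : F) := ht
  have e2 : ((Matrix.SpecialLinearGroup.toGL (bS σ 1) : GL (Fin 2) F) :
      Matrix (Fin 2) (Fin 2) F).trace = σ + ((σ⁻¹ : Fˣ) : F) := trace_bS σ 1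
  rw [e1] at h1
  rw [e2] at h2
  obtain ⟨e, he⟩ := exists_isConj_cjS (h2.trans h1.symm)
  refine ⟨e, ?_⟩
  rwa [cjS_bS, mul_one] at he

theorem isConj_bS_sq (s a : Fˣ) (x : F) : IsConj (bS s x) (bS s ((a : F) ^ 2 * x)) := by
  rw [isConj_iff]
  refine ⟨bS a 0, ?_⟩
  rw [bS_inv, bS_mul, bS_mul]
  congr 1
  · rw [mul_comm a s, mul_assoc, mul_inv_cancel, mul_one]
  · simp only [inv_inv]
    ring

theorem isSquare_of_isConj_bS {σ : Fˣ} (hσ : σ⁻¹ = σ) {x y : F} (hy : y ≠ 0)
    (h : IsConj (bS σ x) (bS σ y)) : IsSquare (x * y) := by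
  rw [isConj_iff] at h
  obtain ⟨c, hc⟩ := h
  have hc' : c * bS σ x = bS σ y * c := by
    rw [← hc]; group
  have hm := congrArg (fun g : SL2 F => (g : Matrix (Fin 2) (Fin 2) F)) hc'
  simp only [Matrix.SpecialLinearGroup.coe_mul, bS_coe, hσ] at hm
  have h00 := congrFun (congrFun hm 0) 0
  have h01 := congrFun (congrFun hm 0) 1
  simp [Matrix.mul_apply, Fin.sum_univ_two] at h00 h01
  have hs : (c : Matrix (Fin 2) (Fin 2) F) 1 0 = 0 := by
    have : y * (c : Matrix (Fin 2) (Fin 2) F) 1 0 = 0 := by linear_combination -h00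
    rcases mul_eq_zero.1 this with h | h
    · exact absurd h hy
    · exact h
  have hd := SL2_det c
  rw [hs, mul_zero, sub_zero] at hd
  refine ⟨(c : Matrix (Fin 2) (Fin 2) F) 0 0 * x, ?_⟩
  have : (c : Matrix (Fin 2) (Fin 2) F) 0 0 * x = y * (c : Matrix (Fin 2) (Fin 2) F) 1 1 := by
    linear_combination h01
  calc x * y = x * (y * ((c : Matrix (Fin 2) (Fin 2) F) 0 0 * (c : Matrix (Fin 2) (Fin 2) F) 1 1)) := by
        rw [hd, mul_one]
    _ = (c : Matrix (Fin 2) (Fin 2) F) 0 0 * x * (y * (c : Matrix (Fin 2) (Fin 2) F) 1 1) := by ring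
    _ = _ := by rw [← this]

theorem bS_central {σ : Fˣ} (hσ : σ⁻¹ = σ) (c : SL2 F) : c * bS σ 0 = bS σ 0 * c := by
  apply Subtype.ext
  rw [Matrix.SpecialLinearGroup.coe_mul, Matrix.SpecialLinearGroup.coe_mul, bS_coe, hσ]
  ext i j
  fin_cases i <;> fin_cases j <;> simp [Matrix.mul_apply, Fin.sum_univ_two, mul_comm]

theorem eq_of_isConj_central {σ : Fˣ} (hσ : σ⁻¹ = σ) {h : SL2 F} (hc : IsConj (bS σ 0) h) :
    h = bS σ 0 := by
  rw [isConj_iff] at hc
  obtain ⟨c, rfl⟩ := hc
  rw [bS_central hσ, mul_assoc, mul_inv_cancel, mul_one]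

theorem two_ne_zero_of_odd (hF : Fintype.card F % 2 = 1) : (2 : F) ≠ 0 := by
  intro h
  have : ringChar F = 2 := by
    have := (ringChar.spec F 2).1 (by exact_mod_cast h)
    rcases (Nat.dvd_prime Nat.prime_two).1 this with h1 | h1
    · exact absurd h1 (CharP.ringChar_ne_one)
    · exact h1
  rw [FiniteField.even_card_iff_char_two] at this
  omega

theorem ringChar_ne_two_of_odd (hF : Fintype.card F % 2 = 1) : ringChar F ≠ 2 := by
  intro h
  rw [FiniteField.even_card_iff_char_two] at h
  omega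

/-- signs -/
def sgn : Bool → Fˣ
  | false => 1
  | true => -1

theorem sgn_inv (b : Bool) : (sgn b : Fˣ)⁻¹ = sgn b := by
  cases b <;> simp [sgn]

/-- in a finite field of odd characteristic the quotient of two non-squares is a square -/
theorem isSquare_mul_of_not {a b : F} (ha : ¬ IsSquare a)
    (hb : ¬ IsSquare b) : IsSquare (a * b) := by
  have ha0 : a ≠ 0 := by rintro rfl; exact ha (IsSquare.zero)
  have hb0 : b ≠ 0 := by rintro rfl; exact hb (IsSquare.zero)
  rw [← quadraticChar_one_iff_isSquare (mul_ne_zero ha0 hb0), map_mul,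
    quadraticChar_neg_one_iff_not_isSquare.2 ha, quadraticChar_neg_one_iff_not_isSquare.2 hb]
  norm_num

/-- parameters for the classes of `SL₂(q)`, `q` odd. -/
def classMap (ε : F) : {t : F // t ^ 2 ≠ 4} ⊕ (Bool × Option Bool) → ConjClasses (SL2 F)
  | Sum.inl t => ConjClasses.mk (cSL t.1)
  | Sum.inr (b, none) => ConjClasses.mk (bS (sgn b) 0)
  | Sum.inr (b, some false) => ConjClasses.mk (bS (sgn b) 1)
  | Sum.inr (b, some true) => ConjClasses.mk (bS (sgn b) ε)

theorem trace_bS_sgn (b : Bool) (x : F) :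
    (bS (sgn b) x : Matrix (Fin 2) (Fin 2) F).trace = 2 * (sgn b : Fˣ) := by
  rw [trace_bS, sgn_inv]; ring

theorem sgn_sq (b : Bool) : ((sgn b : Fˣ) : F) ^ 2 = 1 := by
  cases b <;> simp [sgn]

theorem bS_inj {s : Fˣ} {x y : F} (h : bS s x = bS s y) : x = y := by
  have := congrArg (fun g : SL2 F => (g : Matrix (Fin 2) (Fin 2) F) 0 1) h
  simpa [bS_coe] using this

theorem classMap_injective (hF : Fintype.card F % 2 = 1) {ε : F} (hε : ¬ IsSquare ε) :
    Function.Injective (classMap ε) := by
  have h2 := two_ne_zero_of_odd hF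
  have hε0 : ε ≠ 0 := by rintro rfl; exact hε (IsSquare.zero)
  -- representative and its trace
  have hsgn : ∀ b b' : Bool, (2 : F) * (sgn b : Fˣ) = 2 * (sgn b' : Fˣ) → b = b' := by
    intro b b' h
    have h' := mul_left_cancel₀ h2 h
    cases b <;> cases b' <;> simp [sgn] at h' ⊢
    · exact h2 (by linear_combination h')
    · exact h2 (by linear_combination -h')
  have key : ∀ (b b' : Bool) (x y : F), IsConj (bS (sgn b) x) (bS (sgn b') y) → b = b' := by
    intro b b' x y h
    have := trace_eq_of_isConj h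
    rw [trace_bS_sgn, trace_bS_sgn] at this
    exact hsgn b b' this
  have key2 : ∀ (t : {t : F // t ^ 2 ≠ 4}) (b : Bool) (x : F),
      ¬ IsConj (cSL t.1) (bS (sgn b) x) := by
    intro t b x h
    have := trace_eq_of_isConj h
    rw [trace_bS_sgn, trace_cSL] at this
    apply t.2
    rw [this, mul_pow, sgn_sq]
    norm_num
  rintro (t | ⟨b, _ | _ | _⟩) (t' | ⟨b', _ | _ | _⟩) h <;>
    simp only [classMap, ConjClasses.mk_eq_mk_iff_isConj] at h
  · have := trace_eq_of_isConj h
    rw [trace_cSL, trace_cSL] at this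
    rw [Subtype.ext this]
  · exact absurd h (key2 _ _ _)
  · exact absurd h (key2 _ _ _)
  · exact absurd h (key2 _ _ _)
  · exact absurd h.symm (key2 _ _ _)
  · rw [key _ _ _ _ h]
  · obtain rfl := key _ _ _ _ h
    exact absurd (bS_inj (eq_of_isConj_central (sgn_inv b) h)) one_ne_zero
  · obtain rfl := key _ _ _ _ h
    exact absurd (bS_inj (eq_of_isConj_central (sgn_inv b) h)) hε0
  · exact absurd h.symm (key2 _ _ _)
  · obtain rfl := key _ _ _ _ h
    exact absurd (bS_inj (eq_of_isConj_central (sgn_inv b) h.symm)) one_ne_zero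
  · rw [key _ _ _ _ h]
  · obtain rfl := key _ _ _ _ h
    have := isSquare_of_isConj_bS (sgn_inv b) hε0 h
    rw [one_mul] at this
    exact absurd this hε
  · exact absurd h.symm (key2 _ _ _)
  · obtain rfl := key _ _ _ _ h
    exact absurd (bS_inj (eq_of_isConj_central (sgn_inv b) h.symm)) hε0
  · obtain rfl := key _ _ _ _ h
    have := isSquare_of_isConj_bS (sgn_inv b) one_ne_zero h
    rw [mul_one] at this
    exact absurd this hε
  · rw [key _ _ _ _ h]

theorem classMap_surjective (hF : Fintype.card F % 2 = 1) {ε : F} (hε : ¬ IsSquare ε) :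
    Function.Surjective (classMap ε) := by
  have h2 := two_ne_zero_of_odd hF
  have hε0 : ε ≠ 0 := by rintro rfl; exact hε (IsSquare.zero)
  intro C
  obtain ⟨g, rfl⟩ := ConjClasses.exists_rep C
  have hd := SL2_det g
  by_cases hg : IsScalar2 (g : Matrix (Fin 2) (Fin 2) F)
  · -- scalar
    obtain ⟨s, hs, hs', hgs⟩ := exists_eq_bS g hg.2.1
    rw [hg.1] at hgs
    have hss : ((s⁻¹ : Fˣ) : F) = s := by rw [hs, hs', hg.2.2]
    have hsq : ((s : F) - 1) * ((s : F) + 1) = 0 := by
      have : (s : F) * ((s⁻¹ : Fˣ) : F) = 1 := by simp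
      rw [hss] at this
      linear_combination this
    rcases mul_eq_zero.1 hsq with h | h
    · refine ⟨Sum.inr (false, none), ?_⟩
      simp only [classMap]
      rw [hgs]
      congr 2
      apply Units.ext
      simp only [sgn, Units.val_one]
      linear_combination -h
    · refine ⟨Sum.inr (true, none), ?_⟩
      simp only [classMap]
      rw [hgs]
      congr 2
      apply Units.ext
      simp only [sgn, Units.val_neg, Units.val_one]
      linear_combination -h
  · by_cases ht : (g : Matrix (Fin 2) (Fin 2) F).trace ^ 2 = 4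
    · have hfac : ((g : Matrix (Fin 2) (Fin 2) F).trace - 2) *
          ((g : Matrix (Fin 2) (Fin 2) F).trace + 2) = 0 := by linear_combination ht
      have hb : ∃ b : Bool, (g : Matrix (Fin 2) (Fin 2) F).trace = 2 * (sgn b : Fˣ) := by
        rcases mul_eq_zero.1 hfac with h | h
        · exact ⟨false, by simp only [sgn, Units.val_one]; linear_combination h⟩
        · exact ⟨true, by simp only [sgn, Units.val_neg, Units.val_one]; linear_combination h⟩
      obtain ⟨b, hb⟩ := hb
      obtain ⟨e, he⟩ := exists_isConj_bS g hg (sgn b) (by rw [hb, sgn_inv]; ring)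
      by_cases hsq : IsSquare (e : F)
      · obtain ⟨r, hr⟩ := hsq
        have hr0 : r ≠ 0 := by
          rintro rfl
          apply e.ne_zero
          rw [hr, mul_zero]
        refine ⟨Sum.inr (b, some false), ?_⟩
        simp only [classMap, ConjClasses.mk_eq_mk_iff_isConj]
        have := isConj_bS_sq (sgn b) (Units.mk0 r hr0) (1 : F)
        rw [Units.val_mk0, mul_one, pow_two, ← hr] at this
        exact this.trans he
      · obtain ⟨r, hr⟩ := isSquare_mul_of_not hsq hε
        have hr0 : r ≠ 0 := by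
          rintro rfl
          apply mul_ne_zero e.ne_zero hε0
          rw [hr, mul_zero]
        refine ⟨Sum.inr (b, some true), ?_⟩
        simp only [classMap, ConjClasses.mk_eq_mk_iff_isConj]
        have := isConj_bS_sq (sgn b) (Units.mk0 (r / ε) (div_ne_zero hr0 hε0)) ε
        rw [Units.val_mk0] at this
        have e1 : (r / ε) ^ 2 * ε = e := by
          field_simp
          rw [pow_two, ← hr, mul_comm]
        rw [e1] at this
        exact this.trans he
    · refine ⟨Sum.inl ⟨_, ht⟩, ?_⟩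
      simp only [classMap, ConjClasses.mk_eq_mk_iff_isConj]
      exact (isConj_cSL hF g hg ht).symm

theorem card_sq_ne_four (hF : Fintype.card F % 2 = 1) :
    Fintype.card {t : F // t ^ 2 ≠ 4} = Fintype.card F - 2 := by
  have h2 := two_ne_zero_of_odd hF
  rw [Fintype.card_subtype_compl]
  congr 1
  rw [Fintype.card_subtype]
  have : (Finset.univ.filter (fun t : F => t ^ 2 = 4)) = {2, -2} := by
    ext t
    simp only [Finset.mem_filter, Finset.mem_univ, true_and, Finset.mem_insert,
      Finset.mem_singleton]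
    constructor
    · intro h
      have : (t - 2) * (t + 2) = 0 := by linear_combination h
      rcases mul_eq_zero.1 this with h | h
      · left; linear_combination h
      · right; linear_combination h
    · rintro (rfl | rfl) <;> norm_num
  rw [this, Finset.card_pair]
  intro h
  apply h2
  have : (2 : F) * 2 = 0 := by linear_combination h
  exact (mul_self_eq_zero.1 this)

theorem card_conjClasses_SL2_odd (hF : Fintype.card F % 2 = 1) :
    Nat.card (ConjClasses (SL2 F)) = Fintype.card F + 4 := by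
  obtain ⟨ε, hε⟩ := FiniteField.exists_nonsquare (ringChar_ne_two_of_odd hF)
  rw [← Nat.card_congr (Equiv.ofBijective (classMap ε)
    ⟨classMap_injective hF hε, classMap_surjective hF hε⟩)]
  rw [Nat.card_eq_fintype_card, Fintype.card_sum, card_sq_ne_four hF, Fintype.card_prod,
    Fintype.card_option, Fintype.card_bool]
  have := one_lt_card_F (F := F)
  omega

end Cfsg.Agent.Lib.Helper39
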