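import Cfsg.Agent.Lib.Helper39.GL2Char.SValues
import Cfsg.Agent.Lib.Helper39.GL2Conj

/-!
# Conjugacy in `SL₂(F)` versus conjugacy in `GL₂(F)`
-/

set_option autoImplicit false
set_option linter.unusedSectionVars false

namespace Cfsg.Agent.Lib.Helper39

open Cfsg
open scoped MatrixGroups

section field
variable {F : Type*} [Field F]

/-- conjugation by `diag(e,1)` as a map of `SL₂(F)`. -/
def cjFun (e : Fˣ) (g : SL2 F) : SL2 F :=
  ⟨!![(g : Matrix (Fin 2) (Fin 2) F) 0 0, e * (g : Matrix (Fin 2) (Fin 2) F) 0 1;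
      ((e⁻¹ : Fˣ) : F) * (g : Matrix (Fin 2) (Fin 2) F) 1 0, (g : Matrix (Fin 2) (Fin 2) F) 1 1], by
    have := SL2_det g
    rw [Matrix.det_fin_two_of]
    have he : (e : F) * ((e⁻¹ : Fˣ) : F) = 1 := by simp
    linear_combination this - (g : Matrix (Fin 2) (Fin 2) F) 0 1 * (g : Matrix (Fin 2) (Fin 2) F) 1 0 * he⟩

theorem cjFun_coe (e : Fˣ) (g : SL2 F) : (cjFun e g : Matrix (Fin 2) (Fin 2) F) =
    !![(g : Matrix (Fin 2) (Fin 2) F) 0 0, e * (g : Matrix (Fin 2) (Fin 2) F) 0 1;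
      ((e⁻¹ : Fˣ) : F) * (g : Matrix (Fin 2) (Fin 2) F) 1 0, (g : Matrix (Fin 2) (Fin 2) F) 1 1] := rfl

theorem cjFun_mul (e : Fˣ) (g h : SL2 F) : cjFun e (g * h) = cjFun e g * cjFun e h := by
  apply Subtype.ext
  rw [Matrix.SpecialLinearGroup.coe_mul, cjFun_coe, cjFun_coe, cjFun_coe,
    Matrix.SpecialLinearGroup.coe_mul]
  have he : (e : F) * (e : F)⁻¹ = 1 := mul_inv_cancel₀ e.ne_zero
  ext i j
  fin_cases i <;> fin_cases j
  · simp only [Matrix.mul_apply, Fin.sum_univ_two]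
    simp
    linear_combination (-(g : Matrix (Fin 2) (Fin 2) F) 0 1 * (h : Matrix (Fin 2) (Fin 2) F) 1 0) * he
  · simp only [Matrix.mul_apply, Fin.sum_univ_two]
    simp
    ring
  · simp only [Matrix.mul_apply, Fin.sum_univ_two]
    simp
    ring
  · simp only [Matrix.mul_apply, Fin.sum_univ_two]
    simp
    linear_combination (-(g : Matrix (Fin 2) (Fin 2) F) 1 0 * (h : Matrix (Fin 2) (Fin 2) F) 0 1) * he

theorem cjFun_cjFun (e e' : Fˣ) (g : SL2 F) : cjFun e (cjFun e' g) = cjFun (e * e') g := by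
  apply Subtype.ext
  rw [cjFun_coe, cjFun_coe, cjFun_coe]
  ext i j
  fin_cases i <;> fin_cases j <;> simp [mul_assoc, mul_comm]

theorem cjFun_one (g : SL2 F) : cjFun 1 g = g := by
  apply Subtype.ext
  rw [cjFun_coe]
  ext i j
  fin_cases i <;> fin_cases j <;> simp

/-- conjugation by `diag(e,1)` as an automorphism of `SL₂(F)`. -/
def cjS (e : Fˣ) : SL2 F ≃* SL2 F where
  toFun := cjFun e
  invFun := cjFun e⁻¹
  left_inv g := by rw [cjFun_cjFun, inv_mul_cancel, cjFun_one]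
  right_inv g := by rw [cjFun_cjFun, mul_inv_cancel, cjFun_one]
  map_mul' := cjFun_mul e

theorem cjS_coe (e : Fˣ) (g : SL2 F) : (cjS e g : Matrix (Fin 2) (Fin 2) F) =
    !![(g : Matrix (Fin 2) (Fin 2) F) 0 0, e * (g : Matrix (Fin 2) (Fin 2) F) 0 1;
      ((e⁻¹ : Fˣ) : F) * (g : Matrix (Fin 2) (Fin 2) F) 1 0, (g : Matrix (Fin 2) (Fin 2) F) 1 1] := rfl

theorem cjS_bS (e s : Fˣ) (x : F) : cjS e (bS s x) = bS s (e * x) := by
  apply Subtype.ext
  rw [cjS_coe, bS_coe, bS_coe]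
  ext i j
  fin_cases i <;> fin_cases j <;> simp

end field

section fin
variable {F : Type*} [Field F] [Fintype F] [DecidableEq F]

theorem toGL_cjS (e : Fˣ) (g : SL2 F) :
    Matrix.SpecialLinearGroup.toGL (cjS e g)
      = bG e 1 0 * Matrix.SpecialLinearGroup.toGL g * (bG e 1 0)⁻¹ := by
  rw [bG_inv]
  apply Units.ext
  rw [Units.val_mul, Units.val_mul, bG_coe, bG_coe]
  change (cjS e g : Matrix (Fin 2) (Fin 2) F) = _ * (g : Matrix (Fin 2) (Fin 2) F) * _
  rw [cjS_coe]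
  ext i j
  fin_cases i <;> fin_cases j
  · simp only [Matrix.mul_apply, Fin.sum_univ_two]
    simp
    field_simp
  · simp only [Matrix.mul_apply, Fin.sum_univ_two]
    simp
  · simp only [Matrix.mul_apply, Fin.sum_univ_two]
    simp [mul_comm]
  · simp only [Matrix.mul_apply, Fin.sum_univ_two]
    simp

/-- `GL₂`-conjugate elements of `SL₂` are `SL₂`-conjugate up to a diagonal automorphism. -/
theorem exists_isConj_cjS {g h : SL2 F}
    (hc : IsConj (Matrix.SpecialLinearGroup.toGL h) (Matrix.SpecialLinearGroup.toGL g)) :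
    ∃ e : Fˣ, IsConj (cjS e h) g := by
  rw [isConj_iff] at hc
  obtain ⟨c, hc⟩ := hc
  set e : Fˣ := Matrix.GeneralLinearGroup.det c with he
  have hdet : ((c * (bG e 1 0)⁻¹ : GL (Fin 2) F) : Matrix (Fin 2) (Fin 2) F).det = 1 := by
    rw [bG_inv, Units.val_mul, Matrix.det_mul, bG_coe, Matrix.det_fin_two_of]
    have : (c : Matrix (Fin 2) (Fin 2) F).det = (e : F) := rfl
    rw [this]
    simp
  refine ⟨e, ?_⟩
  rw [isConj_iff]
  let k : SL2 F := ⟨_, hdet⟩
  have h1 : Matrix.SpecialLinearGroup.toGL k = c * (bG e 1 0)⁻¹ := by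
    apply Units.ext
    rfl
  refine ⟨k, ?_⟩
  apply Matrix.SpecialLinearGroup.toGL_injective
  rw [map_mul, map_mul, map_inv, toGL_cjS, h1, ← hc]
  group

/-- companion matrix of determinant one in `SL₂`. -/
def cSL (t : F) : SL2 F := ⟨compMat t 1, compMat_det t 1⟩

theorem cSL_coe (t : F) : (cSL t : Matrix (Fin 2) (Fin 2) F) = compMat t 1 := rfl

theorem trace_conj_SL (c g : SL2 F) :
    ((c * g * c⁻¹ : SL2 F) : Matrix (Fin 2) (Fin 2) F).trace
      = (g : Matrix (Fin 2) (Fin 2) F).trace := by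
  rw [Matrix.SpecialLinearGroup.coe_mul, Matrix.SpecialLinearGroup.coe_mul,
    Matrix.trace_mul_comm, ← mul_assoc, ← Matrix.SpecialLinearGroup.coe_mul,
    inv_mul_cancel, Matrix.SpecialLinearGroup.coe_one, one_mul]

theorem trace_eq_of_isConj {g h : SL2 F} (hc : IsConj g h) :
    (g : Matrix (Fin 2) (Fin 2) F).trace = (h : Matrix (Fin 2) (Fin 2) F).trace := by
  rw [isConj_iff] at hc
  obtain ⟨c, rfl⟩ := hc
  rw [trace_conj_SL]

/-- the norm form `a² + t a b + b²` is universal if `t² ≠ 4` (odd characteristic). -/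
theorem exists_norm_eq (hF : Fintype.card F % 2 = 1) {t : F} (ht : t ^ 2 ≠ 4) (d : F) :
    ∃ a b : F, a ^ 2 + a * b * t + b ^ 2 = d := by
  have h2 : (2 : F) ≠ 0 := by
    intro h
    have : ringChar F = 2 := by
      have := (ringChar.spec F 2).1 (by exact_mod_cast h)
      rcases (Nat.dvd_prime Nat.prime_two).1 this with h1 | h1
      · exact absurd h1 (CharP.ringChar_ne_one)
      · exact h1
    rw [FiniteField.even_card_iff_char_two] at this
    omega
  have h4 : (4 : F) ≠ 0 := by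
    have : (4 : F) = 2 * 2 := by norm_num
    rw [this]
    exact mul_ne_zero h2 h2
  set δ : F := 1 - t ^ 2 / 4 with hδ
  have hδ0 : δ ≠ 0 := by
    intro h
    apply ht
    rw [hδ] at h
    field_simp at h
    linear_combination -h
  obtain ⟨X, Y, hXY⟩ := FiniteField.exists_root_sum_quadratic (R := F)
    (f := Polynomial.X ^ 2) (g := Polynomial.C δ * Polynomial.X ^ 2 - Polynomial.C d)
    (by simp) (by
      rw [Polynomial.degree_sub_C (by rw [Polynomial.degree_C_mul_X_pow 2 hδ0]; norm_num),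
        Polynomial.degree_C_mul_X_pow 2 hδ0]; rfl) hF
  simp at hXY
  refine ⟨X - Y * t / 2, Y, ?_⟩
  rw [hδ] at hXY
  field_simp
  field_simp at hXY
  linear_combination hXY

/-- Non-scalar elements of `SL₂(q)`, `q` odd, whose trace `t` satisfies `t² ≠ 4` are
conjugate to the companion matrix. -/
theorem isConj_cSL (hF : Fintype.card F % 2 = 1) (g : SL2 F)
    (hg : ¬ IsScalar2 (g : Matrix (Fin 2) (Fin 2) F))
    (ht : (g : Matrix (Fin 2) (Fin 2) F).trace ^ 2 ≠ 4) :
    IsConj g (cSL (g : Matrix (Fin 2) (Fin 2) F).trace) := by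
  have hdet : (g : Matrix (Fin 2) (Fin 2) F).det = 1 := g.2
  obtain ⟨P, hP, h⟩ := exists_conj_compMat (g : Matrix (Fin 2) (Fin 2) F) hg
  rw [hdet] at h
  set t := (g : Matrix (Fin 2) (Fin 2) F).trace with htdef
  obtain ⟨a, b, hab⟩ := exists_norm_eq hF ht (P.det)⁻¹
  set Z : Matrix (Fin 2) (Fin 2) F := !![a, -b; b, a + b * t] with hZ
  have hZdet : Z.det = (P.det)⁻¹ := by
    rw [hZ, Matrix.det_fin_two_of, ← hab]; ring
  have hZC : Z * compMat t 1 = compMat t 1 * Z := by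
    rw [hZ]
    ext i j
    fin_cases i <;> fin_cases j <;>
      simp [compMat, Matrix.mul_apply, Fin.sum_univ_two] <;> ring
  have hdet' : (P * Z).det = 1 := by
    rw [Matrix.det_mul, hZdet, mul_inv_cancel₀ hP]
  set P' : SL2 F := ⟨P * Z, hdet'⟩ with hP'
  have h' : g * P' = P' * cSL t := by
    apply Subtype.ext
    rw [Matrix.SpecialLinearGroup.coe_mul, Matrix.SpecialLinearGroup.coe_mul]
    change (g : Matrix (Fin 2) (Fin 2) F) * (P * Z) = (P * Z) * compMat t 1
    rw [← mul_assoc, h, mul_assoc, mul_assoc, hZC]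
  rw [isConj_iff]
  refine ⟨P'⁻¹, ?_⟩
  rw [inv_inv, mul_assoc, h', inv_mul_cancel_left]

end fin

end Cfsg.Agent.Lib.Helper39
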