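import Cfsg.Agent.Lib.Helper39.GL2Char.SSets
import Cfsg.Agent.Lib.Helper39.GL2Char.SClasses

/-!
# The irreducible characters of `SL₂(q)`, `q` odd
-/

set_option autoImplicit false
set_option linter.unusedSectionVars false

namespace Cfsg.Agent.Lib.Helper39

open Cfsg Cfsg.Agent.Lib Cfsg.Agent.Lib.Helper15
open scoped ComplexConjugate MatrixGroups

variable {F : Type*} [Field F] [Fintype F] [DecidableEq F]

/-- the quadratic character with complex values -/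
noncomputable def etaC : MulChar F ℂ := (quadraticChar F).ringHomComp (Int.castRingHom ℂ)

theorem etaC_apply (c : F) : etaC c = ((quadraticChar F c : ℤ) : ℂ) := rfl

theorem etaC_of_isSquare {c : F} (hc : c ≠ 0) (h : IsSquare c) : etaC c = 1 := by
  rw [etaC_apply, (quadraticChar_one_iff_isSquare hc).2 h]; simp

theorem etaC_of_not_isSquare {c : F} (h : ¬ IsSquare c) : etaC c = -1 := by
  rw [etaC_apply, quadraticChar_neg_one_iff_not_isSquare.2 h]; simp

theorem etaC_isQuadratic : (etaC (F := F)).IsQuadratic :=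
  (quadraticChar_isQuadratic F).comp _

theorem etaC_sq : (etaC (F := F)) ^ 2 = 1 := etaC_isQuadratic.sq_eq_one

theorem etaC_ne_one (hF : Fintype.card F % 2 = 1) : etaC (F := F) ≠ 1 :=
  (MulChar.ringHomComp_ne_one_iff (Int.cast_injective (α := ℂ))).2
    (quadraticChar_ne_one (ringChar_ne_two_of_odd hF))

theorem mc_eq_etaC {α : MulChar F ℂ} (h2 : α ^ 2 = 1) (h1 : α ≠ 1) : α = etaC := by
  have hsq : ∀ s : Fˣ, α s * α s = 1 := by
    intro s
    have := congrArg (fun β : MulChar F ℂ => β s) h2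
    simp only [pow_two, MulChar.mul_apply] at this
    rw [this, one_apply_unit]
  obtain ⟨s₀, hs₀⟩ := MulChar.ne_one_iff.1 h1
  have hSq : ∀ s : Fˣ, IsSquare (s : F) → α s = 1 := by
    rintro s ⟨r, hr⟩
    have hr0 : r ≠ 0 := by
      rintro rfl
      apply s.ne_zero
      rw [hr, mul_zero]
    rw [hr, map_mul]
    exact hsq (Units.mk0 r hr0)
  have hs₀' : ¬ IsSquare (s₀ : F) := fun h => hs₀ (hSq s₀ h)
  have hs₀m : α s₀ = -1 := by
    have : (α s₀ - 1) * (α s₀ + 1) = 0 := by linear_combination hsq s₀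
    rcases mul_eq_zero.1 this with h | h
    · exact absurd (by linear_combination h) hs₀
    · linear_combination h
  apply MulChar.ext
  intro s
  by_cases hs : IsSquare (s : F)
  · rw [hSq s hs, etaC_of_isSquare s.ne_zero hs]
  · rw [etaC_of_not_isSquare hs]
    have := hSq (s * s₀) (by rw [Units.val_mul]; exact isSquare_mul_of_not hs hs₀')
    rw [Units.val_mul, map_mul, hs₀m] at this
    linear_combination -this

theorem mS_eq_odd (ψ : AddChar F ℂ) {θ : SL2 F → ℂ} (hθ : IsClassFunction (SL2 F) θ) {ε : F}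
    (hε : ¬ IsSquare ε) {c : F} (hc : c ≠ 0) :
    mS ψ θ c = (mS ψ θ 1 + mS ψ θ ε) / 2 + etaC c * ((mS ψ θ 1 - mS ψ θ ε) / 2) := by
  have hε0 : ε ≠ 0 := by rintro rfl; exact hε (IsSquare.zero)
  by_cases hs : IsSquare c
  · rw [etaC_of_isSquare hc hs]
    obtain ⟨r, hr⟩ := hs
    have hr0 : r ≠ 0 := by
      rintro rfl
      apply hc
      rw [hr, mul_zero]
    have := mS_sq ψ hθ 1 (Units.mk0 r hr0)
    rw [Units.val_mk0, one_mul, pow_two, ← hr] at this
    rw [this]; ring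
  · rw [etaC_of_not_isSquare hs]
    obtain ⟨r, hr⟩ := isSquare_mul_of_not hs hε
    have hr0 : r ≠ 0 := by
      rintro rfl
      apply mul_ne_zero hc hε0
      rw [hr, mul_zero]
    have := mS_sq ψ hθ ε (Units.mk0 (r / ε) (div_ne_zero hr0 hε0))
    have e1 : ε * (r / ε) ^ 2 = c := by
      field_simp
      rw [pow_two, ← hr, mul_comm]
    rw [Units.val_mk0, e1] at this
    rw [this]; ring

theorem sum_erase_etaC (hF : Fintype.card F % 2 = 1) :
    ∑ c ∈ Finset.univ.erase (0 : F), etaC c = 0 := by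
  have h := MulChar.sum_eq_zero_of_ne_one (etaC_ne_one hF)
  rw [sum_ne_zero_eq, MulChar.map_zero, zero_add] at h
  exact h

theorem odd_deg (hF : Fintype.card F % 2 = 1) {ψ : AddChar F ℂ} (hψ : ψ.IsPrimitive)
    {θ : SL2 F → ℂ} (hθ : IsClassFunction (SL2 F) θ) {ε : F} (hε : ¬ IsSquare ε) :
    θ 1 = aS θ + ((Fintype.card F : ℂ) - 1) / 2 * (mS ψ θ 1 + mS ψ θ ε) := by
  rw [deg_eq_sum_mS hψ θ, sum_ne_zero_eq, mS_zero,
    Finset.sum_congr rfl (fun c hc => mS_eq_odd ψ hθ hε (Finset.ne_of_mem_erase hc)),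
    Finset.sum_add_distrib, ← Finset.sum_mul, sum_erase_etaC hF, Finset.sum_const,
    Finset.card_erase_of_mem (Finset.mem_univ _), Finset.card_univ, nsmul_eq_mul,
    cast_card_sub_one]
  ring

theorem odd_val {ψ : AddChar F ℂ} (hψ : ψ.IsPrimitive)
    {θ : SL2 F → ℂ} (hθ : IsClassFunction (SL2 F) θ) {ε : F} (hε : ¬ IsSquare ε) :
    θ (bS 1 1) = aS θ - (mS ψ θ 1 + mS ψ θ ε) / 2
      + (mS ψ θ 1 - mS ψ θ ε) / 2 * gaussSum etaC ψ := by
  have hg : gaussSum etaC ψ = ∑ c ∈ Finset.univ.erase (0 : F), etaC c * ψ c := by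
    rw [gaussSum, sum_ne_zero_eq (fun c => etaC c * ψ c), MulChar.map_zero, zero_mul, zero_add]
  rw [value_eq_sum_mS hψ θ 1, sum_ne_zero_eq, mS_zero]
  simp only [mul_one, AddChar.map_zero_eq_one]
  rw [Finset.sum_congr rfl (fun c hc => by
      rw [mS_eq_odd ψ hθ hε (Finset.ne_of_mem_erase hc), mul_one]; ring :
    ∀ c ∈ Finset.univ.erase (0 : F), mS ψ θ c * ψ c
      = (mS ψ θ 1 + mS ψ θ ε) / 2 * ψ (c * 1) + (mS ψ θ 1 - mS ψ θ ε) / 2 * (etaC c * ψ c)),
    Finset.sum_add_distrib, ← Finset.mul_sum, ← Finset.mul_sum,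
    sum_erase_addChar hψ one_ne_zero, ← hg]
  ring

theorem gauss_sq (hF : Fintype.card F % 2 = 1) {ψ : AddChar F ℂ} (hψ : ψ.IsPrimitive) :
    gaussSum etaC ψ ^ 2 = (-1 : ℂ) ^ ((Fintype.card F - 1) / 2) * (Fintype.card F : ℂ) := by
  rw [gaussSum_sq (etaC_ne_one hF) etaC_isQuadratic hψ, etaC_apply,
    quadraticChar_neg_one (ringChar_ne_two_of_odd hF), ZMod.χ₄_eq_neg_one_pow hF]
  have : Fintype.card F / 2 = (Fintype.card F - 1) / 2 := by omega
  rw [this]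
  push_cast
  ring

/-- an irreducible character of type `(1,0,0)` is trivial. -/
theorem eq_one_of_type {ψ : AddChar F ℂ} (hψ : ψ.IsPrimitive)
    {θ : SL2 F → ℂ} (hθ : IsIrrCharacter (SL2 F) θ) {ε : F} (hε : ¬ IsSquare ε)
    (ha : aS θ = 1) (h1 : mS ψ θ 1 = 0) (h2 : mS ψ θ ε = 0) : θ = fun _ => 1 := by
  have hU : ∀ y : F, θ (bS 1 y) = 1 := by
    intro y
    rw [value_eq_sum_mS hψ θ y, sum_ne_zero_eq, mS_zero, ha,
      Finset.sum_eq_zero (fun c hc => by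
        rw [mS_eq_odd ψ (irr_cf hθ) hε (Finset.ne_of_mem_erase hc), h1, h2]; simp)]
    simp
  apply eq_one_of_linear (irr_char hθ) _ hU
  rw [← bS_one, hU]

theorem inner_psS_etaC :
    classInner (psS (etaC (F := F))) (psS etaC) = 2 := by
  rw [inner_psS_psS, if_pos rfl, if_pos ((eq_inv_iff_sq _).2 etaC_sq)]
  norm_num

/-- the two constituents of the reducible principal series. -/
theorem exists_halfPS (hF : Fintype.card F % 2 = 1) {ψ : AddChar F ℂ} (hψ : ψ.IsPrimitive)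
    {ε : F} (hε : ¬ IsSquare ε) :
    ∃ χp χm : SL2 F → ℂ, IsIrrCharacter (SL2 F) χp ∧ IsIrrCharacter (SL2 F) χm ∧ χp ≠ χm ∧
      psS etaC = χp + χm ∧ aS χp = 1 ∧ aS χm = 1 ∧
      mS ψ χp 1 = 1 ∧ mS ψ χp ε = 0 ∧ mS ψ χm 1 = 0 ∧ mS ψ χm ε = 1 := by
  have hε0 : ε ≠ 0 := by rintro rfl; exact hε (IsSquare.zero)
  obtain ⟨χ₁, χ₂, h₁, h₂, hne, hsum⟩ := char_norm_two (psS_char (etaC (F := F))) inner_psS_etaC
  have i1 : classInner χ₁ (psS etaC) = 1 := by
    rw [hsum, classInner_add_right, irr_inner_self h₁, irr_inner_ne h₁ h₂ hne, add_zero]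
  have i2 : classInner χ₂ (psS etaC) = 1 := by
    rw [hsum, classInner_add_right, irr_inner_self h₂, irr_inner_ne h₂ h₁ hne.symm, zero_add]
  have a1 := aS_ne_zero_of_inner (irr_char h₁) etaC (by rw [i1]; exact one_ne_zero)
  have a2 := aS_ne_zero_of_inner (irr_char h₂) etaC (by rw [i2]; exact one_ne_zero)
  have asum : aS χ₁ + aS χ₂ = 2 := by rw [← aS_add, ← hsum, aS_psS]
  obtain ⟨n₁, hn₁⟩ := aS_nat (irr_char h₁)
  obtain ⟨n₂, hn₂⟩ := aS_nat (irr_char h₂)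
  rw [hn₁] at a1 asum
  rw [hn₂] at a2 asum
  have hn : n₁ + n₂ = 2 := by exact_mod_cast asum
  have hn1' : n₁ ≠ 0 := by rintro rfl; simp at a1
  have hn2' : n₂ ≠ 0 := by rintro rfl; simp at a2
  have e1 : n₁ = 1 := by omega
  have e2 : n₂ = 1 := by omega
  subst e1 e2
  simp only [Nat.cast_one] at hn₁ hn₂
  have m1 : mS ψ χ₁ 1 + mS ψ χ₂ 1 = 1 := by rw [← mS_add, ← hsum, mS_psS hψ _ one_ne_zero]
  have mε : mS ψ χ₁ ε + mS ψ χ₂ ε = 1 := by rw [← mS_add, ← hsum, mS_psS hψ _ hε0]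
  have hone : ∀ χ : SL2 F → ℂ, classInner χ (psS etaC) = 1 → χ ≠ fun _ => 1 := by
    rintro χ h rfl
    rw [inner_one_psS, if_neg (etaC_ne_one hF)] at h
    exact zero_ne_one h
  rcases mS_01 hψ h₁ (one_ne_zero (α := F)) with p | p <;> rcases mS_01 hψ h₁ hε0 with n | n
  · exact absurd (eq_one_of_type hψ h₁ hε hn₁ p n) (hone _ i1)
  · refine ⟨χ₂, χ₁, h₂, h₁, hne.symm, by rw [hsum, add_comm], hn₂, hn₁, ?_, ?_, p, n⟩
    · rw [p] at m1; linear_combination m1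
    · rw [n] at mε; linear_combination mε
  · refine ⟨χ₁, χ₂, h₁, h₂, hne, hsum, hn₁, hn₂, p, n, ?_, ?_⟩
    · rw [p] at m1; linear_combination m1
    · rw [n] at mε; linear_combination mε
  · refine absurd (eq_one_of_type hψ h₂ hε hn₂ ?_ ?_) (hone _ i2)
    · rw [p] at m1; linear_combination m1
    · rw [n] at mε; linear_combination mε

theorem setHS_eq {χp χm : SL2 F → ℂ} (hp : IsIrrCharacter (SL2 F) χp)
    (hm : IsIrrCharacter (SL2 F) χm) (hne : χp ≠ χm) (hsum : psS etaC = χp + χm)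
    (hF : Fintype.card F % 2 = 1) (θ : SL2 F → ℂ) : θ ∈ setHS ↔ θ = χp ∨ θ = χm := by
  rw [mem_setHS]
  constructor
  · rintro ⟨hθ, α, h2, h1, hin⟩
    rw [mc_eq_etaC h2 h1, hsum, classInner_add_right] at hin
    by_cases h : classInner θ χp = 0
    · rw [h, zero_add] at hin
      exact Or.inr (irr_eq_of_inner_ne_zero hθ hm hin)
    · exact Or.inl (irr_eq_of_inner_ne_zero hθ hp h)
  · rintro (rfl | rfl)
    · refine ⟨hp, etaC, etaC_sq, etaC_ne_one hF, ?_⟩
      rw [hsum, classInner_add_right, irr_inner_self hp, irr_inner_ne hp hm hne]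
      norm_num
    · refine ⟨hm, etaC, etaC_sq, etaC_ne_one hF, ?_⟩
      rw [hsum, classInner_add_right, irr_inner_self hm, irr_inner_ne hm hp hne.symm]
      norm_num

/-- types of cuspidal characters -/
theorem cuspidal_odd (hF : Fintype.card F % 2 = 1) {ψ : AddChar F ℂ} (hψ : ψ.IsPrimitive)
    {ε : F} (hε : ¬ IsSquare ε) {θ : SL2 F → ℂ} (hθ : IsIrrCharacter (SL2 F) θ)
    (ha : aS θ = 0) :
    (mS ψ θ 1 = 1 ∧ mS ψ θ ε = 1) ∨ (mS ψ θ 1 = 1 ∧ mS ψ θ ε = 0) ∨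
      (mS ψ θ 1 = 0 ∧ mS ψ θ ε = 1) := by
  have hε0 : ε ≠ 0 := by rintro rfl; exact hε (IsSquare.zero)
  rcases mS_01 hψ hθ (one_ne_zero (α := F)) with p | p <;> rcases mS_01 hψ hθ hε0 with n | n
  · exfalso
    apply irr_one_ne_zero hθ
    rw [odd_deg hF hψ (irr_cf hθ) hε, ha, p, n]
    simp
  · exact Or.inr (Or.inr ⟨p, n⟩)
  · exact Or.inr (Or.inl ⟨p, n⟩)
  · exact Or.inl ⟨p, n⟩

end Cfsg.Agent.Lib.Helper39
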