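import Cfsg.Agent.Lib.Helper39.GL2Char.SOdd

/-!
# The irreducible characters of `SL₂(q)`, `q` odd: diagonal automorphism and counting
-/

set_option autoImplicit false
set_option linter.unusedSectionVars false

namespace Cfsg.Agent.Lib.Helper39

open Cfsg Cfsg.Agent.Lib Cfsg.Agent.Lib.Helper15
open scoped ComplexConjugate MatrixGroups

variable {F : Type*} [Field F] [Fintype F] [DecidableEq F]

theorem irr_cjS (e : Fˣ) {θ : SL2 F → ℂ} (hθ : IsIrrCharacter (SL2 F) θ) :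
    IsIrrCharacter (SL2 F) (θ ∘ cjS e) := irr_comp_equiv (cjS e) hθ

theorem mS_cjS (ψ : AddChar F ℂ) (θ : SL2 F → ℂ) (e : Fˣ) (c : F) :
    mS ψ (θ ∘ cjS e) (c * e) = mS ψ θ c := by
  unfold mS addMult
  congr 1
  refine Fintype.sum_bijective (fun x => (e : F) * x) (mulLeft_bijective₀ _ e.ne_zero) _ _ ?_
  intro x
  simp only [AddChar.mulShift_apply, Function.comp, cjS_bS]
  rw [mul_assoc]

theorem aS_cjS (θ : SL2 F → ℂ) (e : Fˣ) : aS (θ ∘ cjS e) = aS θ := by
  obtain ⟨ψ, -⟩ := exists_addChar_ne_one (F := F)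
  rw [← mS_zero ψ, ← mS_zero ψ, ← mS_cjS ψ θ e 0, zero_mul]

theorem psS_cjS (α : MulChar F ℂ) (e : Fˣ) : psS α ∘ cjS e = psS α := by
  funext g
  simp only [Function.comp]
  rw [psS_eq_psG, psS_eq_psG, toGL_cjS, char_cf (psG_char α 1)]

theorem one_cjS (θ : SL2 F → ℂ) (e : Fˣ) : (θ ∘ cjS e) 1 = θ 1 := by
  simp

/-- swapping of the types under the diagonal automorphism attached to a non-square -/
theorem mS_cjS_one (ψ : AddChar F ℂ) {θ : SL2 F → ℂ} (hθ : IsClassFunction (SL2 F) θ) (e : Fˣ) :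
    mS ψ (θ ∘ cjS e) 1 = mS ψ θ e := by
  have h1 := mS_cjS ψ θ e ((e⁻¹ : Fˣ) : F)
  rw [Units.inv_mul] at h1
  rw [h1]
  have h2 := mS_sq ψ hθ (e : F) e⁻¹
  rw [← h2]
  congr 1
  rw [pow_two, ← mul_assoc, Units.mul_inv, one_mul]

theorem mS_cjS_eps (ψ : AddChar F ℂ) (θ : SL2 F → ℂ) (e : Fˣ) :
    mS ψ (θ ∘ cjS e) e = mS ψ θ 1 := by
  have h1 := mS_cjS ψ θ e 1
  rwa [one_mul] at h1

theorem cast_half_add (hF : Fintype.card F % 2 = 1) :
    (((Fintype.card F + 1) / 2 : ℕ) : ℂ) = ((Fintype.card F : ℂ) + 1) / 2 := by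
  rw [Nat.cast_div (by omega) (by norm_num)]
  push_cast
  ring

theorem cast_half_sub (hF : Fintype.card F % 2 = 1) :
    (((Fintype.card F - 1) / 2 : ℕ) : ℂ) = ((Fintype.card F : ℂ) - 1) / 2 := by
  rw [Nat.cast_div (by omega) (by norm_num), cast_card_sub_one]
  push_cast
  ring

theorem deg_of_mem_setHS (hF : Fintype.card F % 2 = 1) {θ : SL2 F → ℂ} (h : θ ∈ setHS) :
    θ 1 = ((Fintype.card F : ℂ) + 1) / 2 := by
  obtain ⟨ψ, hψ⟩ := exists_addChar_ne_one (F := F)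
  obtain ⟨ε, hε⟩ := FiniteField.exists_nonsquare (ringChar_ne_two_of_odd hF)
  obtain ⟨χp, χm, hp, hm, hne, hsum, ap, am, p1, p2, m1, m2⟩ := exists_halfPS hF hψ hε
  rcases (setHS_eq hp hm hne hsum hF θ).1 h with rfl | rfl
  · rw [odd_deg hF hψ (irr_cf hp) hε, ap, p1, p2]; ring
  · rw [odd_deg hF hψ (irr_cf hm) hε, am, m1, m2]; ring

theorem card_setHS (hF : Fintype.card F % 2 = 1) : (setHS (F := F)).card = 2 := by
  classical
  obtain ⟨ψ, hψ⟩ := exists_addChar_ne_one (F := F)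
  obtain ⟨ε, hε⟩ := FiniteField.exists_nonsquare (ringChar_ne_two_of_odd hF)
  obtain ⟨χp, χm, hp, hm, hne, hsum, -⟩ := exists_halfPS hF hψ hε
  have : setHS (F := F) = {χp, χm} := by
    ext θ
    rw [setHS_eq hp hm hne hsum hF θ]
    simp
  rw [this, Finset.card_pair hne]

theorem deg_of_mem_setCS (hF : Fintype.card F % 2 = 1) {θ : SL2 F → ℂ} (h : θ ∈ setCS) :
    θ 1 = (Fintype.card F : ℂ) - 1 ∨ θ 1 = ((Fintype.card F : ℂ) - 1) / 2 := by
  obtain ⟨ψ, hψ⟩ := exists_addChar_ne_one (F := F)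
  obtain ⟨ε, hε⟩ := FiniteField.exists_nonsquare (ringChar_ne_two_of_odd hF)
  obtain ⟨hθ, ha⟩ := mem_setCS.1 h
  rw [odd_deg hF hψ (irr_cf hθ) hε, ha]
  rcases cuspidal_odd hF hψ hε hθ ha with ⟨h1, h2⟩ | ⟨h1, h2⟩ | ⟨h1, h2⟩ <;> rw [h1, h2]
  · left; ring
  · right; ring
  · right; ring

open Classical in
theorem card_filter_sq_ne_one_odd (hF : Fintype.card F % 2 = 1) :
    ((Finset.univ : Finset (MulChar F ℂ)).filter (fun α => α ^ 2 ≠ 1)).card
      = Fintype.card F - 3 := by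
  have : (Finset.univ : Finset (MulChar F ℂ)).filter (fun α => α ^ 2 ≠ 1)
      = (Finset.univ.erase 1).erase etaC := by
    ext α
    simp only [Finset.mem_filter, Finset.mem_univ, true_and, Finset.mem_erase, and_true]
    constructor
    · intro h
      constructor
      · rintro rfl
        exact h etaC_sq
      · rintro rfl
        exact h (one_pow 2)
    · rintro ⟨h1, h2⟩ h3
      exact h1 (mc_eq_etaC h3 h2)
  rw [this, Finset.card_erase_of_mem, Finset.card_erase_of_mem (Finset.mem_univ _),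
    Finset.card_univ, mc_card]
  · omega
  · simp [etaC_ne_one hF]

theorem card_setPS_odd (hF : Fintype.card F % 2 = 1) :
    2 * (setPS (F := F)).card = Fintype.card F - 3 := by
  rw [card_setPS, card_filter_sq_ne_one_odd hF]

theorem three_le_card (hF : Fintype.card F % 2 = 1) : 3 ≤ Fintype.card F := by
  have := one_lt_card_F (F := F)
  omega

open Classical in
/-- the cuspidal characters of degree `q - 1`. -/
noncomputable def setC2 : Finset (SL2 F → ℂ) :=
  setCS.filter (fun θ => θ 1 = (Fintype.card F : ℂ) - 1)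

open Classical in
/-- the cuspidal characters of degree `(q - 1)/2`. -/
noncomputable def setC1 : Finset (SL2 F → ℂ) :=
  setCS.filter (fun θ => ¬ θ 1 = (Fintype.card F : ℂ) - 1)

theorem card_setC12 (hF : Fintype.card F % 2 = 1) :
    2 * (setC2 (F := F)).card = Fintype.card F - 1 ∧ (setC1 (F := F)).card = 2 := by
  classical
  have hsplit : ∀ f : (SL2 F → ℂ) → ℂ, ∑ θ ∈ setCS, f θ = ∑ θ ∈ setC2, f θ + ∑ θ ∈ setC1, f θ :=
    fun f => (Finset.sum_filter_add_sum_filter_not _ _ _).symm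
  have hcount := sum_irr_SL2 (F := F) (fun _ => 1)
  have hsq := sum_irr_SL2 (F := F) (fun χ => χ 1 ^ 2)
  rw [hsplit] at hcount hsq
  rw [sum_sq_irrSet, card_SL2] at hsq
  simp only [Finset.sum_const, nsmul_eq_mul, mul_one] at hcount
  rw [card_irrSet, card_conjClasses_SL2_odd hF, card_setHS hF] at hcount
  push_cast at hcount
  have d1 : ∀ θ ∈ setC1 (F := F), θ 1 ^ 2 = (((Fintype.card F : ℂ) - 1) / 2) ^ 2 := by
    intro θ h
    obtain ⟨h1, h2⟩ := Finset.mem_filter.1 h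
    rcases deg_of_mem_setCS hF h1 with h3 | h3
    · exact absurd h3 h2
    · rw [h3]
  have d2 : ∀ θ ∈ setC2 (F := F), θ 1 ^ 2 = ((Fintype.card F : ℂ) - 1) ^ 2 := by
    intro θ h
    rw [(Finset.mem_filter.1 h).2]
  have d3 : ∀ θ ∈ setPS (F := F), θ 1 ^ 2 = ((Fintype.card F : ℂ) + 1) ^ 2 := by
    intro θ h
    obtain ⟨α, -, rfl⟩ := mem_setPS.1 h
    rw [psS_one]
  have d4 : ∀ θ ∈ setHS (F := F), θ 1 ^ 2 = (((Fintype.card F : ℂ) + 1) / 2) ^ 2 := by
    intro θ h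
    rw [deg_of_mem_setHS hF h]
  rw [Finset.sum_congr rfl d1, Finset.sum_congr rfl d2, Finset.sum_congr rfl d3,
    Finset.sum_congr rfl d4, stS_one] at hsq
  simp only [Finset.sum_const, nsmul_eq_mul] at hsq
  rw [card_setHS hF] at hsq
  have hP : (2 : ℂ) * ((setPS (F := F)).card : ℂ) = (Fintype.card F : ℂ) - 3 := by
    have h := card_setPS_odd hF
    have h3 := three_le_card hF
    have h2 := congrArg (Nat.cast (R := ℂ)) h
    rw [Nat.cast_sub h3] at h2
    push_cast at h2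
    exact h2
  have hq1 := card_sub_one_ne_zero (F := F)
  push_cast at hsq
  have e2 : (2 : ℂ) * ((setC2 (F := F)).card : ℂ) = (Fintype.card F : ℂ) - 1 := by
    have : ((Fintype.card F : ℂ) - 1) ^ 2 * ((2 : ℂ) * ((setC2 (F := F)).card : ℂ))
        = ((Fintype.card F : ℂ) - 1) ^ 2 * ((Fintype.card F : ℂ) - 1) := by
      linear_combination (-8 / 3 : ℂ) * hsq + (2 / 3 : ℂ) * ((Fintype.card F : ℂ) - 1) ^ 2 * hcount
        + (-(4 / 3 : ℂ) * ((Fintype.card F : ℂ) + 1) ^ 2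
            + (1 / 3 : ℂ) * ((Fintype.card F : ℂ) - 1) ^ 2) * hP
    exact mul_left_cancel₀ (pow_ne_zero 2 hq1) this
  have e1 : ((setC1 (F := F)).card : ℂ) = 2 := by
    linear_combination (-1 : ℂ) * hcount - (1 / 2 : ℂ) * e2 - (1 / 2 : ℂ) * hP
  constructor
  · rw [← cast_card_sub_one] at e2
    exact_mod_cast e2
  · exact_mod_cast e1

end Cfsg.Agent.Lib.Helper39
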