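import Cfsg.Agent.Lib.Helper39.GL2Char.SOdd2

/-!
# The irreducible characters of `SL₂(q)`, `q` odd: the list with degrees
-/

set_option autoImplicit false
set_option linter.unusedSectionVars false

namespace Cfsg.Agent.Lib.Helper39

open Cfsg Cfsg.Agent.Lib Cfsg.Agent.Lib.Helper15
open scoped ComplexConjugate MatrixGroups

variable {F : Type*} [Field F] [Fintype F] [DecidableEq F]

theorem mem_setC2 {θ : SL2 F → ℂ} : θ ∈ setC2 ↔ θ ∈ setCS ∧ θ 1 = (Fintype.card F : ℂ) - 1 := by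
  classical
  simp [setC2]

theorem mem_setC1 {θ : SL2 F → ℂ} : θ ∈ setC1 ↔ θ ∈ setCS ∧ ¬ θ 1 = (Fintype.card F : ℂ) - 1 := by
  classical
  simp [setC1]

/-- the list of irreducible characters of `SL₂(q)`, `q` odd, with their degrees. -/
theorem deg_cases_odd (hF : Fintype.card F % 2 = 1) {θ : SL2 F → ℂ}
    (hθ : IsIrrCharacter (SL2 F) θ) : ∃ d : ℕ, θ 1 = d ∧
    ((θ = (fun _ => 1) ∧ d = 1) ∨ (θ = stS ∧ d = Fintype.card F) ∨
      (θ ∈ setPS ∧ d = Fintype.card F + 1) ∨ (θ ∈ setHS ∧ d = (Fintype.card F + 1) / 2) ∨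
      (θ ∈ setC2 ∧ d = Fintype.card F - 1) ∨ (θ ∈ setC1 ∧ d = (Fintype.card F - 1) / 2)) := by
  by_cases ha : aS θ = 0
  · have hmem : θ ∈ setCS := mem_setCS.2 ⟨hθ, ha⟩
    by_cases h1 : θ 1 = (Fintype.card F : ℂ) - 1
    · exact ⟨Fintype.card F - 1, by rw [cast_card_sub_one, h1],
        Or.inr (Or.inr (Or.inr (Or.inr (Or.inl ⟨mem_setC2.2 ⟨hmem, h1⟩, rfl⟩))))⟩
    · refine ⟨(Fintype.card F - 1) / 2, ?_,
        Or.inr (Or.inr (Or.inr (Or.inr (Or.inr ⟨mem_setC1.2 ⟨hmem, h1⟩, rfl⟩))))⟩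
      rw [cast_half_sub hF]
      exact (deg_of_mem_setCS hF hmem).resolve_left h1
  · rcases irr_of_aS_ne_zero hθ ha with h | h | h | h
    · exact ⟨1, by rw [h]; simp, Or.inl ⟨h, rfl⟩⟩
    · exact ⟨Fintype.card F, by rw [h, stS_one], Or.inr (Or.inl ⟨h, rfl⟩)⟩
    · obtain ⟨α, hα, rfl⟩ := h
      exact ⟨Fintype.card F + 1, by rw [psS_one]; push_cast; ring,
        Or.inr (Or.inr (Or.inl ⟨mem_setPS.2 ⟨α, hα, rfl⟩, rfl⟩))⟩
    · have hmem : θ ∈ setHS := mem_setHS.2 ⟨hθ, h⟩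
      exact ⟨(Fintype.card F + 1) / 2, by rw [cast_half_add hF, deg_of_mem_setHS hF hmem],
        Or.inr (Or.inr (Or.inr (Or.inl ⟨hmem, rfl⟩)))⟩

theorem irr_of_mem_setPS {θ : SL2 F → ℂ} (h : θ ∈ setPS) : IsIrrCharacter (SL2 F) θ := by
  obtain ⟨α, hα, rfl⟩ := mem_setPS.1 h
  exact (psS_irr_iff α).2 hα

theorem one_of_mem_setPS {θ : SL2 F → ℂ} (h : θ ∈ setPS) : θ 1 = (Fintype.card F : ℂ) + 1 := by
  obtain ⟨α, hα, rfl⟩ := mem_setPS.1 h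
  exact psS_one α

theorem one_of_mem_setC1 (hF : Fintype.card F % 2 = 1) {θ : SL2 F → ℂ} (h : θ ∈ setC1) :
    θ 1 = ((Fintype.card F : ℂ) - 1) / 2 := by
  obtain ⟨h1, h2⟩ := mem_setC1.1 h
  exact (deg_of_mem_setCS hF h1).resolve_left h2

end Cfsg.Agent.Lib.Helper39
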