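import Cfsg.Agent.Lib.Helper39.GL2Char.SOdd3

/-!
# `SL₂(q)`, `q` odd: values on elliptic elements and at transvections
-/

set_option autoImplicit false
set_option linter.unusedSectionVars false

namespace Cfsg.Agent.Lib.Helper39

open Cfsg Cfsg.Agent.Lib Cfsg.Agent.Lib.Helper15
open scoped ComplexConjugate MatrixGroups

variable {F : Type*} [Field F] [Fintype F] [DecidableEq F]

theorem not_isScalar2_of_elliptic {M : Matrix (Fin 2) (Fin 2) F} (h : Elliptic M) :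
    ¬ IsScalar2 M := by
  intro hs
  apply h (M 0 0) ![1, 0] (by simp)
  ext i
  fin_cases i <;> simp [Matrix.mulVec, dotProduct, Fin.sum_univ_two, hs.2.1]

theorem trace_sq_ne_four_of_elliptic (hF : Fintype.card F % 2 = 1) (g : SL2 F)
    (h : Elliptic (g : Matrix (Fin 2) (Fin 2) F)) :
    (g : Matrix (Fin 2) (Fin 2) F).trace ^ 2 ≠ 4 := by
  intro ht
  have h2 := two_ne_zero_of_odd hF
  set σ : F := (g : Matrix (Fin 2) (Fin 2) F).trace / 2 with hσ
  have hdet : ((g : Matrix (Fin 2) (Fin 2) F) - σ • (1 : Matrix (Fin 2) (Fin 2) F)).det = 0 := by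
    have hd := SL2_det g
    rw [Matrix.trace_fin_two] at ht hσ
    rw [Matrix.det_fin_two]
    simp only [Matrix.sub_apply, Matrix.smul_apply, Matrix.one_apply_eq, smul_eq_mul, mul_one,
      Matrix.one_apply_ne (by decide : (0 : Fin 2) ≠ 1), Matrix.one_apply_ne (by decide : (1 : Fin 2) ≠ 0),
      mul_zero, sub_zero]
    rw [hσ]
    field_simp
    linear_combination 4 * hd - ht
  obtain ⟨v, hv, hv0⟩ := Matrix.exists_mulVec_eq_zero_iff.2 hdet
  apply h σ v hv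
  rw [Matrix.sub_mulVec, sub_eq_zero, Matrix.smul_mulVec, Matrix.one_mulVec] at hv0
  exact hv0

theorem isConj_cjS_of_elliptic (hF : Fintype.card F % 2 = 1) (g : SL2 F)
    (h : Elliptic (g : Matrix (Fin 2) (Fin 2) F)) (e : Fˣ) : IsConj (cjS e g) g := by
  have hns := not_isScalar2_of_elliptic h
  have ht := trace_sq_ne_four_of_elliptic hF g h
  have htr : (cjS e g : Matrix (Fin 2) (Fin 2) F).trace = (g : Matrix (Fin 2) (Fin 2) F).trace := by
    rw [cjS_coe, Matrix.trace_fin_two_of, Matrix.trace_fin_two]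
  have hns' : ¬ IsScalar2 (cjS e g : Matrix (Fin 2) (Fin 2) F) := by
    intro hs
    apply hns
    obtain ⟨h1, h2, h3⟩ := hs
    rw [cjS_coe] at h1 h2 h3
    simp at h1 h2 h3
    exact ⟨h1, h2, h3⟩
  have c1 := isConj_cSL hF g hns ht
  have c2 := isConj_cSL hF (cjS e g) hns' (by rw [htr]; exact ht)
  rw [htr] at c2
  exact c2.trans c1.symm

theorem cf_of_isConj {G : Type*} [Group G] {χ : G → ℂ} (hχ : IsClassFunction G χ) {g h : G}
    (hc : IsConj g h) : χ g = χ h := by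
  rw [isConj_iff] at hc
  obtain ⟨c, rfl⟩ := hc
  rw [hχ]

/-- the diagonal automorphism attached to a non-square swaps the two constituents. -/
theorem halfPS_swap (hF : Fintype.card F % 2 = 1) {ψ : AddChar F ℂ} {ε : Fˣ}
    {χp χm : SL2 F → ℂ} (hp : IsIrrCharacter (SL2 F) χp)
    (hm : IsIrrCharacter (SL2 F) χm) (hne : χp ≠ χm) (hsum : psS etaC = χp + χm)
    (m1 : mS ψ χm 1 = 0) (m2 : mS ψ χm ε = 1) : χm ∘ cjS ε = χp := by
  have hirr := irr_cjS ε hm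
  have hmem : (χm ∘ cjS ε) ∈ setHS := by
    rw [mem_setHS]
    refine ⟨hirr, etaC, etaC_sq, etaC_ne_one hF, ?_⟩
    rw [← psS_cjS etaC ε, classInner_comp_equiv, hsum, classInner_add_right,
      irr_inner_self hm, irr_inner_ne hm hp hne.symm]
    norm_num
  rcases (setHS_eq hp hm hne hsum hF _).1 hmem with h1 | h1
  · exact h1
  · exfalso
    have h2 := mS_cjS_one ψ (irr_cf hm) ε
    rw [h1, m1, m2] at h2
    exact zero_ne_one h2

theorem setHS_elliptic (hF : Fintype.card F % 2 = 1) {θ : SL2 F → ℂ} (h : θ ∈ setHS) (g : SL2 F)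
    (hg : Elliptic (g : Matrix (Fin 2) (Fin 2) F)) : θ g = 0 := by
  obtain ⟨ψ, hψ⟩ := exists_addChar_ne_one (F := F)
  obtain ⟨ε, hε⟩ := FiniteField.exists_nonsquare (ringChar_ne_two_of_odd hF)
  have hε0 : ε ≠ 0 := by rintro rfl; exact hε (IsSquare.zero)
  obtain ⟨χp, χm, hp, hm, hne, hsum, ap, am, p1, p2, m1, m2⟩ := exists_halfPS hF hψ hε
  have hswap := halfPS_swap hF (ε := Units.mk0 ε hε0) hp hm hne hsum m1 m2
  have h1 : χm g = χp g := by
    rw [← hswap, Function.comp, cf_of_isConj (irr_cf hm) (isConj_cjS_of_elliptic hF g hg _)]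
  have h2 : χp g + χm g = 0 := by
    have := congrFun hsum g
    rw [psS_elliptic _ g hg] at this
    exact this.symm
  have h3 : χp g = 0 := by
    rw [h1] at h2
    have : (2 : ℂ) * χp g = 0 := by linear_combination h2
    rcases mul_eq_zero.1 this with h | h
    · norm_num at h
    · exact h
  rcases (setHS_eq hp hm hne hsum hF θ).1 h with rfl | rfl
  · exact h3
  · rw [h1, h3]

theorem setHS_val_u (hF : Fintype.card F % 2 = 1) {θ : SL2 F → ℂ} (h : θ ∈ setHS) :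
    (2 * θ (bS 1 1) - 1) ^ 2 = (-1 : ℂ) ^ ((Fintype.card F - 1) / 2) * (Fintype.card F : ℂ) := by
  obtain ⟨ψ, hψ⟩ := exists_addChar_ne_one (F := F)
  obtain ⟨ε, hε⟩ := FiniteField.exists_nonsquare (ringChar_ne_two_of_odd hF)
  obtain ⟨χp, χm, hp, hm, hne, hsum, ap, am, p1, p2, m1, m2⟩ := exists_halfPS hF hψ hε
  rw [← gauss_sq hF hψ]
  rcases (setHS_eq hp hm hne hsum hF θ).1 h with rfl | rfl
  · rw [odd_val hψ (irr_cf hp) hε, ap, p1, p2]; ring
  · rw [odd_val hψ (irr_cf hm) hε, am, m1, m2]; ring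

theorem setHS_sum_u (hF : Fintype.card F % 2 = 1) {θ θ' : SL2 F → ℂ} (h : θ ∈ setHS)
    (h' : θ' ∈ setHS) (hne' : θ ≠ θ') : θ (bS 1 1) + θ' (bS 1 1) = 1 := by
  obtain ⟨ψ, hψ⟩ := exists_addChar_ne_one (F := F)
  obtain ⟨ε, hε⟩ := FiniteField.exists_nonsquare (ringChar_ne_two_of_odd hF)
  obtain ⟨χp, χm, hp, hm, hne, hsum, -⟩ := exists_halfPS hF hψ hε
  have hu : χp (bS 1 1) + χm (bS 1 1) = 1 := by
    have := congrFun hsum (bS 1 1)
    rw [psS_u _ one_ne_zero] at this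
    exact this.symm
  rcases (setHS_eq hp hm hne hsum hF θ).1 h with rfl | rfl <;>
    rcases (setHS_eq hp hm hne hsum hF θ').1 h' with rfl | rfl
  · exact absurd rfl hne'
  · exact hu
  · rw [add_comm]; exact hu
  · exact absurd rfl hne'

/-- type of a cuspidal character of degree `(q-1)/2`. -/
theorem setC1_type (hF : Fintype.card F % 2 = 1) {ψ : AddChar F ℂ} (hψ : ψ.IsPrimitive)
    {ε : F} (hε : ¬ IsSquare ε) {θ : SL2 F → ℂ} (h : θ ∈ setC1) :
    (mS ψ θ 1 = 1 ∧ mS ψ θ ε = 0) ∨ (mS ψ θ 1 = 0 ∧ mS ψ θ ε = 1) := by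
  obtain ⟨h1, h2⟩ := mem_setC1.1 h
  obtain ⟨hθ, ha⟩ := mem_setCS.1 h1
  rcases cuspidal_odd hF hψ hε hθ ha with ⟨e1, e2⟩ | h3 | h3
  · exfalso
    apply h2
    rw [odd_deg hF hψ (irr_cf hθ) hε, ha, e1, e2]; ring
  · exact Or.inl h3
  · exact Or.inr h3

theorem setC1_val_u (hF : Fintype.card F % 2 = 1) {θ : SL2 F → ℂ} (h : θ ∈ setC1) :
    (2 * θ (bS 1 1) + 1) ^ 2 = (-1 : ℂ) ^ ((Fintype.card F - 1) / 2) * (Fintype.card F : ℂ) := by
  obtain ⟨ψ, hψ⟩ := exists_addChar_ne_one (F := F)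
  obtain ⟨ε, hε⟩ := FiniteField.exists_nonsquare (ringChar_ne_two_of_odd hF)
  obtain ⟨hθ, ha⟩ := mem_setCS.1 (mem_setC1.1 h).1
  rw [← gauss_sq hF hψ, odd_val hψ (irr_cf hθ) hε, ha]
  rcases setC1_type hF hψ hε h with ⟨e1, e2⟩ | ⟨e1, e2⟩ <;> rw [e1, e2] <;> ring

theorem cjS_mem_setC1 {θ : SL2 F → ℂ} (h : θ ∈ setC1) (e : Fˣ) : θ ∘ cjS e ∈ setC1 := by
  obtain ⟨h1, h2⟩ := mem_setC1.1 h
  obtain ⟨hθ, ha⟩ := mem_setCS.1 h1
  rw [mem_setC1, mem_setCS, aS_cjS, one_cjS]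
  exact ⟨⟨irr_cjS e hθ, ha⟩, h2⟩

theorem setC1_sum_u (hF : Fintype.card F % 2 = 1) {θ θ' : SL2 F → ℂ} (h : θ ∈ setC1)
    (h' : θ' ∈ setC1) (hne' : θ ≠ θ') : θ (bS 1 1) + θ' (bS 1 1) = -1 := by
  classical
  obtain ⟨ψ, hψ⟩ := exists_addChar_ne_one (F := F)
  obtain ⟨ε, hε⟩ := FiniteField.exists_nonsquare (ringChar_ne_two_of_odd hF)
  have hε0 : ε ≠ 0 := by rintro rfl; exact hε (IsSquare.zero)
  obtain ⟨hθ, ha⟩ := mem_setCS.1 (mem_setC1.1 h).1
  obtain ⟨hθ', ha'⟩ := mem_setCS.1 (mem_setC1.1 h').1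
  have hthird : ∀ φ ∈ setC1 (F := F), φ ≠ θ → φ ≠ θ' → False := by
    intro φ hφ h1 h2
    have hsub : ({θ, θ', φ} : Finset (SL2 F → ℂ)) ⊆ setC1 := by
      intro x hx
      simp only [Finset.mem_insert, Finset.mem_singleton] at hx
      rcases hx with rfl | rfl | rfl <;> assumption
    have hc := Finset.card_le_card hsub
    rw [(card_setC12 hF).2, Finset.card_eq_three.2 ⟨θ, θ', φ, hne', h1.symm, h2.symm, rfl⟩] at hc
    omega
  have hsw1 := mS_cjS_one ψ (irr_cf hθ) (Units.mk0 ε hε0)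
  rw [Units.val_mk0] at hsw1
  rw [odd_val hψ (irr_cf hθ) hε, odd_val hψ (irr_cf hθ') hε, ha, ha']
  rcases setC1_type hF hψ hε h with ⟨e1, e2⟩ | ⟨e1, e2⟩ <;>
    rcases setC1_type hF hψ hε h' with ⟨f1, f2⟩ | ⟨f1, f2⟩
  · exfalso
    apply hthird _ (cjS_mem_setC1 h (Units.mk0 ε hε0))
    · intro hc
      rw [hc, e1, e2] at hsw1
      exact one_ne_zero hsw1
    · intro hc
      rw [hc, f1, e2] at hsw1
      exact one_ne_zero hsw1
  · rw [e1, e2, f1, f2]; ring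
  · rw [e1, e2, f1, f2]; ring
  · exfalso
    apply hthird _ (cjS_mem_setC1 h (Units.mk0 ε hε0))
    · intro hc
      rw [hc, e1, e2] at hsw1
      exact zero_ne_one hsw1
    · intro hc
      rw [hc, f1, e2] at hsw1
      exact zero_ne_one hsw1

end Cfsg.Agent.Lib.Helper39
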